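import Mathlib

set_option autoImplicit false

namespace Cfsg.Agent.Helper22

theorem card_rel_eq_sum_left {A B : Type*} [Fintype A] [Finite B] (r : A → B → Prop) :
    Nat.card {p : A × B // r p.1 p.2} = ∑ a : A, Nat.card {b : B // r a b} := by
  rw [Nat.card_congr (Equiv.subtypeProdEquivSigmaSubtype r), Nat.card_sigma]

theorem card_rel_eq_sum_right {A B : Type*} [Finite A] [Fintype B] (r : A → B → Prop) :
    Nat.card {p : A × B // r p.1 p.2} = ∑ b : B, Nat.card {a : A // r a b} := by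
  rw [← card_rel_eq_sum_left (fun b a => r a b)]
  refine Nat.card_congr ⟨fun p => ⟨(p.1.2, p.1.1), p.2⟩, fun p => ⟨(p.1.2, p.1.1), p.2⟩, ?_, ?_⟩
  · intro p; rfl
  · intro p; rfl

theorem relIndex_eq_orbit {X : Type*} [Group X] (C Y : Subgroup X) :
    Y.relIndex C = (MulAction.orbit C (((1 : X) : X ⧸ Y))).ncard := by
  rw [← MulAction.index_stabilizer, Subgroup.relIndex]
  congr 1
  ext c
  rw [Subgroup.mem_subgroupOf, MulAction.mem_stabilizer_iff]
  have : c • (((1 : X) : X ⧸ Y)) = (((c : X) * 1 : X) : X ⧸ Y) := rfl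
  rw [this, QuotientGroup.eq]
  simp

theorem relIndex_le_index' {X : Type*} [Group X] [Finite X] (C Y : Subgroup X) :
    Y.relIndex C ≤ Y.index := by
  rw [relIndex_eq_orbit, Subgroup.index, ← Set.ncard_univ]
  exact Set.ncard_le_ncard (Set.subset_univ _) (Set.toFinite _)

theorem relIndex_lt_index {X : Type*} [Group X] [Finite X] (C Y : Subgroup X) (g : X)
    (hg : ∀ c ∈ C, ∀ y ∈ Y, g ≠ c * y) : Y.relIndex C < Y.index := by
  rw [relIndex_eq_orbit, Subgroup.index, ← Set.ncard_univ]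
  apply Set.ncard_lt_ncard _ (Set.toFinite _)
  rw [Set.ssubset_univ_iff]
  intro h
  have hmem : ((g : X) : X ⧸ Y) ∈ MulAction.orbit C (((1 : X) : X ⧸ Y)) := by
    rw [h]; exact Set.mem_univ _
  obtain ⟨c, hc⟩ := hmem
  have hc' : (((c : X) * 1 : X) : X ⧸ Y) = ((g : X) : X ⧸ Y) := hc
  rw [QuotientGroup.eq] at hc'
  apply hg c c.2 _ hc'
  group

theorem card_eq_relIndex_mul {X : Type*} [Group X] (C Y : Subgroup X) :
    Nat.card C = Y.relIndex C * Nat.card (C ⊓ Y : Subgroup X) := by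
  have h := Subgroup.relIndex_mul_relIndex (⊥ : Subgroup X) (C ⊓ Y) C bot_le inf_le_left
  rw [Subgroup.relIndex_bot_left, Subgroup.relIndex_bot_left, Subgroup.inf_relIndex_left] at h
  rw [← h, mul_comm]

end Cfsg.Agent.Helper22
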