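import Mathlib

set_option autoImplicit false

namespace Cfsg.Agent.Helper22

theorem card_addGen_tuples {V : Type*} [AddCommGroup V] [Finite V] {p r : ℕ} [Fact p.Prime]
    [Module (ZMod p) V] (hcard : Nat.card V = p ^ r) :
    Nat.card {s : Fin r → V // AddSubgroup.closure (Set.range s) = ⊤} =
      ∏ i ∈ Finset.range r, (p ^ r - p ^ i) := by
  have hfin : Module.finrank (ZMod p) V = r := by
    have h1 := Module.natCard_eq_pow_finrank (K := ZMod p) (V := V)
    rw [hcard, Nat.card_zmod] at h1
    exact (Nat.pow_right_injective (Fact.out : p.Prime).two_le h1).symm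
  have hiff : ∀ s : Fin r → V,
      AddSubgroup.closure (Set.range s) = ⊤ ↔ LinearIndependent (ZMod p) s := by
    intro s
    have hle1 : ∀ x, x ∈ AddSubgroup.closure (Set.range s) →
        x ∈ Submodule.span (ZMod p) (Set.range s) := by
      intro x hx
      have h0 : AddSubgroup.closure (Set.range s) ≤
          (Submodule.span (ZMod p) (Set.range s)).toAddSubgroup :=
        (AddSubgroup.closure_le _).2 Submodule.subset_span
      exact h0 hx
    have hle2 : ∀ x, x ∈ Submodule.span (ZMod p) (Set.range s) →
        x ∈ AddSubgroup.closure (Set.range s) := by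
      intro x hx
      have h0 : Submodule.span (ZMod p) (Set.range s) ≤
          AddSubgroup.toZModSubmodule p (AddSubgroup.closure (Set.range s)) :=
        Submodule.span_le.2 AddSubgroup.subset_closure
      exact h0 hx
    constructor
    · intro h
      apply linearIndependent_of_top_le_span_of_card_eq_finrank
      · intro x _
        exact hle1 x (by rw [h]; exact AddSubgroup.mem_top x)
      · rw [Fintype.card_fin, hfin]
    · intro h
      have h2 := h.span_eq_top_of_card_eq_finrank' (by rw [Fintype.card_fin, hfin])
      rw [eq_top_iff]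
      intro x _
      exact hle2 x (by rw [h2]; exact Submodule.mem_top)
  rw [Nat.card_congr (Equiv.subtypeEquivRight hiff)]
  have h3 := card_linearIndependent (K := ZMod p) (V := V) (k := r) (by rw [hfin])
  rw [h3, hfin, ZMod.card, ← Fin.prod_univ_eq_prod_range (fun i => p ^ r - p ^ i) r]

theorem card_gen_tuples {Q : Type*} [CommGroup Q] [Finite Q] {p r : ℕ} [Fact p.Prime]
    (hexp : ∀ x : Q, x ^ p = 1) (hcard : Nat.card Q = p ^ r) :
    Nat.card {g : Fin r → Q // Subgroup.closure (Set.range g) = ⊤} =
      ∏ i ∈ Finset.range r, (p ^ r - p ^ i) := by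
  letI : Module (ZMod p) (Additive Q) := AddCommGroup.zmodModule (by
    intro x
    show Additive.ofMul (Additive.toMul x ^ p) = 0
    rw [hexp]; rfl)
  have hc : Nat.card (Additive Q) = p ^ r := hcard
  rw [← card_addGen_tuples hc]
  apply Nat.card_congr
  refine Equiv.subtypeEquiv
    ⟨fun g i => Additive.ofMul (g i), fun s i => Additive.toMul (s i), fun _ => rfl, fun _ => rfl⟩ ?_
  intro g
  show Subgroup.closure (Set.range g) = ⊤ ↔
    AddSubgroup.closure (Set.range (fun i => Additive.ofMul (g i))) = ⊤
  constructor
  · intro h
    rw [eq_top_iff]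
    intro v _
    have hv : Additive.toMul v ∈ Subgroup.closure (Set.range g) := by
      rw [h]; exact Subgroup.mem_top _
    have key : ∀ x, x ∈ Subgroup.closure (Set.range g) →
        Additive.ofMul x ∈ AddSubgroup.closure (Set.range (fun i => Additive.ofMul (g i))) := by
      intro x hx
      induction hx using Subgroup.closure_induction with
      | mem y hy =>
        obtain ⟨i, rfl⟩ := hy
        exact AddSubgroup.subset_closure ⟨i, rfl⟩
      | one => exact AddSubgroup.zero_mem _
      | mul a b _ _ iha ihb => exact AddSubgroup.add_mem _ iha ihb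
      | inv a _ iha => exact AddSubgroup.neg_mem _ iha
    exact key _ hv
  · intro h
    rw [eq_top_iff]
    intro x _
    have hx : Additive.ofMul x ∈
        AddSubgroup.closure (Set.range (fun i => Additive.ofMul (g i))) := by
      rw [h]; exact AddSubgroup.mem_top _
    have key : ∀ v, v ∈ AddSubgroup.closure (Set.range (fun i => Additive.ofMul (g i))) →
        Additive.toMul v ∈ Subgroup.closure (Set.range g) := by
      intro v hv
      induction hv using AddSubgroup.closure_induction with
      | mem y hy =>
        obtain ⟨i, rfl⟩ := hy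
        exact Subgroup.subset_closure ⟨i, rfl⟩
      | zero => exact Subgroup.one_mem _
      | add a b _ _ iha ihb => exact Subgroup.mul_mem _ iha ihb
      | neg a _ iha => exact Subgroup.inv_mem _ iha
    exact key _ hx

end Cfsg.Agent.Helper22
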