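import Cfsg.Agent.Helper22.TwoFrob

set_option autoImplicit false
set_option linter.style.haveILetI false
set_option linter.unusedSectionVars false
set_option linter.unusedSimpArgs false
set_option linter.unusedVariables false
set_option maxHeartbeats 1000000

open Cfsg
open scoped Pointwise

namespace Cfsg.Agent.Helper22

theorem two_frob {G : Type*} [Group G] [Finite G] (H K : Subgroup G) [hHn : H.Normal]
    [hKn : K.Normal] (hlt : H < K)
    (hK : ∃ C : Subgroup ↥K, Cfsg.IsFrobeniusComplement C ∧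
      Cfsg.frobeniusKernel C = (H.subgroupOf K : Set ↥K))
    (hGH : ∃ C : Subgroup (G ⧸ H), Cfsg.IsFrobeniusComplement C ∧
      Cfsg.frobeniusKernel C = (K.map (QuotientGroup.mk' H) : Set (G ⧸ H))) :
    Group.IsSolvable G ∧ Odd (Nat.card (↥K ⧸ H.subgroupOf K)) ∧
      Nat.Coprime (Nat.card (↥K ⧸ H.subgroupOf K)) (Nat.card ↥H * Nat.card (G ⧸ K)) ∧
      IsCyclic (G ⧸ K) ∧
      ∀ p q : ℕ, p.Prime → q.Prime → p ≠ q → p ∣ Nat.card G → q ∣ Nat.card G →
        ((∃ g : G, orderOf g = p * q) ↔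
          (p ∣ Nat.card (↥K ⧸ H.subgroupOf K) ↔ q ∣ Nat.card (↥K ⧸ H.subgroupOf K))) := by
  classical
  obtain ⟨C₁, hC₁, hker₁⟩ := hK
  obtain ⟨C₂, hC₂, hker₂⟩ := hGH
  have hHle : H ≤ K := hlt.le
  obtain ⟨hN₁n, hc₁, hN₁ne, hfpf₁, hcop₁, hnil₁⟩ :=
    tf_frob_pack C₁ hC₁ (H.subgroupOf K) hker₁
  obtain ⟨hN₂n, hc₂, hN₂ne, hfpf₂, hcop₂, hnil₂⟩ :=
    tf_frob_pack C₂ hC₂ (K.map (QuotientGroup.mk' H)) hker₂
  haveI := hN₁n
  haveI := hN₂n
  haveI := hnil₁
  haveI := hnil₂
  haveI hnilH : Group.IsNilpotent H :=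
    Group.nilpotent_of_mulEquiv (Subgroup.subgroupOfEquivOfLe hHle)
  -- the orders
  have e1 : Nat.card (H.subgroupOf K) = Nat.card H :=
    Nat.card_congr (Subgroup.subgroupOfEquivOfLe hHle).toEquiv
  have e2 : Nat.card K = Nat.card H * Nat.card C₁ := by
    have h := (Subgroup.isComplement'_iff_card_mul_and_disjoint.mp hc₁).1
    rw [e1] at h
    exact h.symm
  have e4 : Nat.card (G ⧸ H) = Nat.card (K.map (QuotientGroup.mk' H)) * Nat.card C₂ :=
    ((Subgroup.isComplement'_iff_card_mul_and_disjoint.mp hc₂).1).symm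
  have e3 : Nat.card (K.map (QuotientGroup.mk' H)) = Nat.card C₁ := by
    let f : K →* G ⧸ H := (QuotientGroup.mk' H).comp K.subtype
    have hker : f.ker = H.subgroupOf K := by
      ext x
      rw [MonoidHom.mem_ker, Subgroup.mem_subgroupOf]
      exact QuotientGroup.eq_one_iff (x : G)
    have hrange : f.range = K.map (QuotientGroup.mk' H) := by
      ext z
      constructor
      · rintro ⟨x, rfl⟩
        show QuotientGroup.mk' H (x : G) ∈ _
        exact Subgroup.mem_map_of_mem _ x.2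
      · rintro ⟨k, hk, rfl⟩
        exact ⟨⟨k, hk⟩, rfl⟩
    have h1 := Subgroup.card_mul_index f.ker
    rw [Subgroup.index_ker, hker, hrange, e1, e2] at h1
    exact Nat.eq_of_mul_eq_mul_left Nat.card_pos h1
  have e5 : Nat.card G = Nat.card (G ⧸ H) * Nat.card H :=
    Subgroup.card_eq_card_quotient_mul_card_subgroup H
  have e6 : Nat.card (G ⧸ K) = Nat.card C₂ := by
    have h1 := Subgroup.card_eq_card_quotient_mul_card_subgroup K
    rw [e5, e4, e3, e2] at h1
    have hpos : 0 < Nat.card H * Nat.card C₁ := Nat.mul_pos Nat.card_pos Nat.card_pos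
    apply Nat.eq_of_mul_eq_mul_right hpos
    rw [← h1]
    ring
  have e7 : Nat.card (K ⧸ H.subgroupOf K) = Nat.card C₁ := by
    have h1 := Subgroup.card_eq_card_quotient_mul_card_subgroup (H.subgroupOf K)
    rw [e1, e2] at h1
    have hpos : 0 < Nat.card H := Nat.card_pos
    apply Nat.eq_of_mul_eq_mul_right hpos
    rw [← h1]
    ring
  have hcopHB : Nat.Coprime (Nat.card H) (Nat.card C₁) := by rw [← e1]; exact hcop₁
  have hcopBC : Nat.Coprime (Nat.card C₁) (Nat.card C₂) := by rw [← e3]; exact hcop₂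
  have hnb1 : Nat.card C₁ ≠ 1 := fun h => hC₁.1 (Subgroup.eq_bot_of_card_eq C₁ h)
  -- no-commute facts
  have ncK : ∀ y : K, y ∉ H.subgroupOf K → ∀ x ∈ H.subgroupOf K, y * x = x * y → x = 1 :=
    fun y hy x hx hcomm => tf_frob_nc (H.subgroupOf K) C₁ hc₁ hfpf₁ y hy x hx hcomm
  have ncQ : ∀ y : G ⧸ H, y ∉ K.map (QuotientGroup.mk' H) →
      ∀ x ∈ K.map (QuotientGroup.mk' H), y * x = x * y → x = 1 :=
    fun y hy x hx hcomm =>
      tf_frob_nc (K.map (QuotientGroup.mk' H)) C₂ hc₂ hfpf₂ y hy x hx hcomm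
  have nc1 : ∀ y ∈ K, y ∉ H → ∀ x ∈ H, y * x = x * y → x = 1 := by
    intro y hyK hyH x hxH hcomm
    have h := ncK ⟨y, hyK⟩ (fun h => hyH (Subgroup.mem_subgroupOf.mp h)) ⟨x, hHle hxH⟩
      (Subgroup.mem_subgroupOf.mpr hxH) (Subtype.ext hcomm)
    exact congrArg Subtype.val h
  have nc2 : ∀ y : G, y ∉ K → ∀ x ∈ K, y * x = x * y → x ∈ H := by
    intro y hyK x hxK hcomm
    have hyN : QuotientGroup.mk' H y ∉ K.map (QuotientGroup.mk' H) := by
      intro h
      obtain ⟨k, hk, hky⟩ := Subgroup.mem_map.mp h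
      obtain ⟨z, hz, rfl⟩ := (QuotientGroup.mk'_eq_mk' H).mp hky
      exact hyK (K.mul_mem hk (hHle hz))
    have h1 := ncQ _ hyN _ (Subgroup.mem_map_of_mem _ hxK)
      (by rw [← map_mul, ← map_mul, hcomm])
    exact (QuotientGroup.eq_one_iff x).mp h1
  -- oddness
  have hodd : Odd (Nat.card C₁) := by
    rw [← Nat.not_even_iff_odd]
    intro heven
    have h2 : 2 ∣ Nat.card C₁ := even_iff_two_dvd.mp heven
    haveI : Fact (Nat.Prime 2) := ⟨Nat.prime_two⟩
    obtain ⟨t₀, ht₀⟩ := exists_prime_orderOf_dvd_card' 2 h2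
    have ht₀1 : t₀ ≠ 1 := by
      rintro rfl
      rw [orderOf_one] at ht₀
      omega
    have ht₀sq : t₀ * t₀ = 1 := by
      rw [← pow_two, ← ht₀, pow_orderOf_eq_one]
    obtain ⟨t, ht⟩ : ∃ t : G, t = ((t₀ : K) : G) := ⟨_, rfl⟩
    have htK : t ∈ K := by rw [ht]; exact (t₀ : K).2
    have htsq : t * t = 1 := by
      rw [ht]
      have := congrArg (fun z : C₁ => ((z : K) : G)) ht₀sq
      simpa using this
    have htH : t ∉ H := by
      intro h
      apply ht₀1
      have hmem : (t₀ : K) ∈ H.subgroupOf K ⊓ C₁ :=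
        Subgroup.mem_inf.mpr ⟨by rw [Subgroup.mem_subgroupOf, ← ht]; exact h, t₀.2⟩
      rw [disjoint_iff.mp hc₁.disjoint, Subgroup.mem_bot] at hmem
      exact Subtype.ext hmem
    have hinv : ∀ s : G, s ∈ K → s ∉ H → s * s = 1 → ∀ n ∈ H, s * n * s⁻¹ = n⁻¹ := by
      intro s hsK hsH hss
      exact tf_invol_inverts H s hss (fun x hx hcomm => nc1 s hsK hsH x hx hcomm)
    obtain ⟨c, hcC, hc1⟩ : ∃ c ∈ C₂, c ≠ 1 := by
      by_contra hcon
      push Not at hcon
      exact hC₂.1 ((Subgroup.eq_bot_iff_forall C₂).mpr hcon)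
    obtain ⟨g, rfl⟩ := QuotientGroup.mk'_surjective H c
    have hgK : QuotientGroup.mk' H g ∉ K.map (QuotientGroup.mk' H) := by
      intro h
      apply hc1
      have hmem : QuotientGroup.mk' H g ∈ K.map (QuotientGroup.mk' H) ⊓ C₂ :=
        Subgroup.mem_inf.mpr ⟨h, hcC⟩
      rw [disjoint_iff.mp hc₂.disjoint, Subgroup.mem_bot] at hmem
      exact hmem
    obtain ⟨n₀, hn₀H, hn₀1⟩ : ∃ n ∈ H, n ≠ 1 := by
      by_contra hcon
      push Not at hcon
      apply hN₁ne
      rw [Subgroup.eq_bot_iff_forall]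
      intro x hx
      exact Subtype.ext (hcon x (Subgroup.mem_subgroupOf.mp hx))
    have hsK : g * t * g⁻¹ ∈ K := hKn.conj_mem t htK g
    have hsH : g * t * g⁻¹ ∉ H := by
      intro h
      apply htH
      have h' := hHn.conj_mem _ h g⁻¹
      have e : g⁻¹ * (g * t * g⁻¹) * g⁻¹⁻¹ = t := by group
      rwa [e] at h'
    have hss : (g * t * g⁻¹) * (g * t * g⁻¹) = 1 := by
      calc (g * t * g⁻¹) * (g * t * g⁻¹) = g * (t * t) * g⁻¹ := by group
        _ = g * 1 * g⁻¹ := by rw [htsq]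
        _ = 1 := by group
    have hstH : (g * t * g⁻¹) * t ∈ H := by
      by_contra hnot
      apply hn₀1
      refine nc1 _ (K.mul_mem hsK htK) hnot n₀ hn₀H ?_
      have e1' := hinv t htK htH htsq n₀ hn₀H
      have e2' := hinv _ hsK hsH hss n₀⁻¹ (H.inv_mem hn₀H)
      rw [inv_inv] at e2'
      calc (g * t * g⁻¹) * t * n₀
          = (g * t * g⁻¹) * (t * n₀ * t⁻¹) * (g * t * g⁻¹)⁻¹ * ((g * t * g⁻¹) * t) := by group
        _ = (g * t * g⁻¹) * n₀⁻¹ * (g * t * g⁻¹)⁻¹ * ((g * t * g⁻¹) * t) := by rw [e1']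
        _ = n₀ * ((g * t * g⁻¹) * t) := by rw [e2']
    have hq1 : QuotientGroup.mk' H ((g * t * g⁻¹) * t) = 1 :=
      (QuotientGroup.eq_one_iff _).mpr hstH
    have hq2 : QuotientGroup.mk' H t * QuotientGroup.mk' H t = 1 := by
      rw [← map_mul, htsq, map_one]
    have hcomm : QuotientGroup.mk' H g * QuotientGroup.mk' H t =
        QuotientGroup.mk' H t * QuotientGroup.mk' H g := by
      have e3' : QuotientGroup.mk' H g * QuotientGroup.mk' H t * (QuotientGroup.mk' H g)⁻¹ *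
          QuotientGroup.mk' H t = 1 := by
        have h := hq1
        simpa only [map_mul, map_inv] using h
      have e4' : QuotientGroup.mk' H g * QuotientGroup.mk' H t * (QuotientGroup.mk' H g)⁻¹ =
          QuotientGroup.mk' H t := by
        have h := mul_eq_one_iff_eq_inv.mp e3'
        rw [h]
        exact inv_eq_of_mul_eq_one_left hq2
      calc QuotientGroup.mk' H g * QuotientGroup.mk' H t
          = (QuotientGroup.mk' H g * QuotientGroup.mk' H t * (QuotientGroup.mk' H g)⁻¹) *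
            QuotientGroup.mk' H g := by group
        _ = QuotientGroup.mk' H t * QuotientGroup.mk' H g := by rw [e4']
    have hπt : QuotientGroup.mk' H t = 1 :=
      ncQ _ hgK _ (Subgroup.mem_map_of_mem _ htK) hcomm
    exact htH ((QuotientGroup.eq_one_iff t).mp hπt)
  -- Z-groups and cyclicity
  haveI hZ₁ : IsZGroup C₁ := by
    refine ⟨fun p hp P => ?_⟩
    haveI := Fact.mk hp
    rcases Cfsg.Agent.S0040.result (H.subgroupOf K) C₁ hc₁ hN₁ne hfpf₁ p P with h | ⟨n, ⟨e⟩⟩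
    · exact h
    · exfalso
      have hcard : Nat.card P = 4 * 2 ^ n := by
        rw [Nat.card_congr e.toEquiv]
        haveI : NeZero (2 ^ n) := ⟨by positivity⟩
        rw [Nat.card_eq_fintype_card, QuaternionGroup.card]
      have h2 : 2 ∣ Nat.card C₁ := by
        have h3 : Nat.card P ∣ Nat.card C₁ := Subgroup.card_subgroup_dvd_card _
        exact dvd_trans (by rw [hcard]; exact ⟨2 * 2 ^ n, by ring⟩) h3
      exact (Nat.not_even_iff_odd.mpr hodd) (even_iff_two_dvd.mpr h2)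
  haveI hZ₂ : IsZGroup (K.map (QuotientGroup.mk' H)) := by
    let ψ : C₁ →* K.map (QuotientGroup.mk' H) :=
      (((QuotientGroup.mk' H).comp K.subtype).comp C₁.subtype).codRestrict
        (K.map (QuotientGroup.mk' H)) (fun c => Subgroup.mem_map_of_mem _ (c : K).2)
    have hψ : Function.Surjective ψ := by
      rintro ⟨z, hz⟩
      obtain ⟨k, hk, rfl⟩ := Subgroup.mem_map.mp hz
      have hk' : (⟨k, hk⟩ : K) ∈ H.subgroupOf K ⊔ C₁ := by rw [hc₁.sup_eq_top]; trivial
      have hmem : (⟨k, hk⟩ : K) ∈ ((H.subgroupOf K : Subgroup K) : Set K) * (C₁ : Set K) := by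
        rw [← Subgroup.normal_mul]; exact hk'
      obtain ⟨n, hn, c, hc, hnc⟩ := Set.mem_mul.1 hmem
      refine ⟨⟨c, hc⟩, Subtype.ext ?_⟩
      show QuotientGroup.mk' H (c : G) = QuotientGroup.mk' H k
      have hk2 : k = (n : G) * (c : G) := (congrArg Subtype.val hnc).symm
      have hn1 : QuotientGroup.mk' H (n : G) = 1 :=
        (QuotientGroup.eq_one_iff _).mpr (Subgroup.mem_subgroupOf.mp hn)
      rw [hk2, map_mul, hn1, one_mul]
    exact IsZGroup.of_surjective hψ
  haveI hcyc₂ : IsCyclic (K.map (QuotientGroup.mk' H)) := inferInstance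
  obtain ⟨ρ, hρ⟩ : ∃ ρ : G ⧸ H →* G ⧸ K,
      ∀ g : G, ρ (QuotientGroup.mk' H g) = QuotientGroup.mk' K g :=
    ⟨QuotientGroup.lift H (QuotientGroup.mk' K) (by
      intro x hx
      rw [MonoidHom.mem_ker]
      exact (QuotientGroup.eq_one_iff x).mpr (hHle hx)), fun g => rfl⟩
  have hC₂comm : ∀ a ∈ C₂, ∀ b ∈ C₂, a * b = b * a := by
    obtain ⟨k₀', hk₀'⟩ := IsCyclic.exists_generator (α := K.map (QuotientGroup.mk' H))
    have hk₀ne : (k₀' : G ⧸ H) ≠ 1 := by
      intro h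
      apply hN₂ne
      rw [Subgroup.eq_bot_iff_forall]
      intro x hx
      obtain ⟨i, hi⟩ := Subgroup.mem_zpowers_iff.mp (hk₀' ⟨x, hx⟩)
      have hx' : x = (k₀' : G ⧸ H) ^ i := by
        have h' := congrArg Subtype.val hi
        simpa using h'.symm
      rw [hx', h, one_zpow]
    have hconj : ∀ a : G ⧸ H, ∃ i : ℤ, a * (k₀' : G ⧸ H) * a⁻¹ = (k₀' : G ⧸ H) ^ i := by
      intro a
      have hmem : a * (k₀' : G ⧸ H) * a⁻¹ ∈ K.map (QuotientGroup.mk' H) :=
        hN₂n.conj_mem _ k₀'.2 a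
      obtain ⟨i, hi⟩ := Subgroup.mem_zpowers_iff.mp (hk₀' ⟨_, hmem⟩)
      refine ⟨i, ?_⟩
      have h' := congrArg Subtype.val hi
      simpa using h'.symm
    intro a ha b hb
    obtain ⟨i, hi⟩ := hconj a
    obtain ⟨j, hj⟩ := hconj b
    have h1 : (a * b) * (k₀' : G ⧸ H) * (a * b)⁻¹ = (k₀' : G ⧸ H) ^ (i * j) := by
      calc (a * b) * (k₀' : G ⧸ H) * (a * b)⁻¹
          = a * (b * (k₀' : G ⧸ H) * b⁻¹) * a⁻¹ := by group
        _ = a * (k₀' : G ⧸ H) ^ j * a⁻¹ := by rw [hj]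
        _ = (a * (k₀' : G ⧸ H) * a⁻¹) ^ j := (conj_zpow).symm
        _ = ((k₀' : G ⧸ H) ^ i) ^ j := by rw [hi]
        _ = (k₀' : G ⧸ H) ^ (i * j) := (zpow_mul _ _ _).symm
    have h2 : (b * a) * (k₀' : G ⧸ H) * (b * a)⁻¹ = (k₀' : G ⧸ H) ^ (i * j) := by
      calc (b * a) * (k₀' : G ⧸ H) * (b * a)⁻¹
          = b * (a * (k₀' : G ⧸ H) * a⁻¹) * b⁻¹ := by group
        _ = b * (k₀' : G ⧸ H) ^ i * b⁻¹ := by rw [hi]
        _ = (b * (k₀' : G ⧸ H) * b⁻¹) ^ i := (conj_zpow).symm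
        _ = ((k₀' : G ⧸ H) ^ j) ^ i := by rw [hj]
        _ = (k₀' : G ⧸ H) ^ (i * j) := by rw [← zpow_mul, mul_comm]
    by_contra hab
    have hw1 : (b * a)⁻¹ * (a * b) ≠ 1 := by
      intro h
      exact hab (inv_mul_eq_one.mp h).symm
    have hwC : (b * a)⁻¹ * (a * b) ∈ C₂ :=
      C₂.mul_mem (C₂.inv_mem (C₂.mul_mem hb ha)) (C₂.mul_mem ha hb)
    have e : ((b * a)⁻¹ * (a * b)) * (k₀' : G ⧸ H) =
        (k₀' : G ⧸ H) * ((b * a)⁻¹ * (a * b)) := by
      calc ((b * a)⁻¹ * (a * b)) * (k₀' : G ⧸ H)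
          = (b * a)⁻¹ * ((a * b) * (k₀' : G ⧸ H) * (a * b)⁻¹) * (a * b) := by group
        _ = (b * a)⁻¹ * ((b * a) * (k₀' : G ⧸ H) * (b * a)⁻¹) * (a * b) := by rw [h1, h2]
        _ = (k₀' : G ⧸ H) * ((b * a)⁻¹ * (a * b)) := by group
    have hwk : (k₀' : G ⧸ H) ∈
        K.map (QuotientGroup.mk' H) ⊓ Subgroup.centralizer {(b * a)⁻¹ * (a * b)} :=
      Subgroup.mem_inf.mpr ⟨k₀'.2, Subgroup.mem_centralizer_singleton_iff.mpr e.symm⟩
    rw [hfpf₂ _ hwC hw1, Subgroup.mem_bot] at hwk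
    exact hk₀ne hwk
  have hcycC₂ : IsCyclic C₂ := by
    haveI hVcomm : IsMulCommutative (K.map (QuotientGroup.mk' H)) := ⟨⟨fun a b => by
      obtain ⟨g, hg⟩ := IsCyclic.exists_generator (α := K.map (QuotientGroup.mk' H))
      obtain ⟨i, rfl⟩ := Subgroup.mem_zpowers_iff.mp (hg a)
      obtain ⟨j, rfl⟩ := Subgroup.mem_zpowers_iff.mp (hg b)
      exact Commute.zpow_zpow_self g i j⟩⟩
    refine Cfsg.Agent.S0041.result C₂ (K.map (QuotientGroup.mk' H)) hN₂ne ?_ hfpf₂ (Or.inl ?_)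
    · rw [Subgroup.normalizer_eq_top]; exact le_top
    · exact ⟨⟨fun a b => Subtype.ext (hC₂comm a a.2 b b.2)⟩⟩
  haveI := hcycC₂
  haveI hcycGK : IsCyclic (G ⧸ K) := by
    have hsurj : Function.Surjective (ρ.comp C₂.subtype) := by
      intro z
      obtain ⟨g, rfl⟩ := QuotientGroup.mk'_surjective K z
      have hg : QuotientGroup.mk' H g ∈ K.map (QuotientGroup.mk' H) ⊔ C₂ := by
        rw [hc₂.sup_eq_top]; trivial
      have hmem : QuotientGroup.mk' H g ∈
          ((K.map (QuotientGroup.mk' H) : Subgroup (G ⧸ H)) : Set (G ⧸ H)) *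
            (C₂ : Set (G ⧸ H)) := by
        rw [← Subgroup.normal_mul]; exact hg
      obtain ⟨n, hn, c, hc, hnc⟩ := Set.mem_mul.1 hmem
      obtain ⟨k, hk, rfl⟩ := Subgroup.mem_map.mp hn
      refine ⟨⟨c, hc⟩, ?_⟩
      show ρ c = QuotientGroup.mk' K g
      have hk1 : QuotientGroup.mk' K k = 1 := (QuotientGroup.eq_one_iff k).mpr hk
      rw [← hρ g, ← hnc, map_mul, hρ k, hk1, one_mul]
    exact isCyclic_of_surjective _ hsurj
  -- solvability
  have hsolv : Group.IsSolvable G := by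
    haveI : Group.IsSolvable H := inferInstance
    haveI : Group.IsSolvable (K.map (QuotientGroup.mk' H)) := inferInstance
    haveI : Group.IsSolvable (G ⧸ K) := Group.isSolvable_of_comm (fun a b => by
      obtain ⟨g, hg⟩ := IsCyclic.exists_generator (α := G ⧸ K)
      obtain ⟨i, rfl⟩ := Subgroup.mem_zpowers_iff.mp (hg a)
      obtain ⟨j, rfl⟩ := Subgroup.mem_zpowers_iff.mp (hg b)
      exact Commute.zpow_zpow_self g i j)
    haveI : Group.IsSolvable (G ⧸ H) := by
      refine Group.isSolvable_of_ker_le_range (K.map (QuotientGroup.mk' H)).subtype ρ ?_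
      intro x hx
      obtain ⟨g, rfl⟩ := QuotientGroup.mk'_surjective H x
      rw [MonoidHom.mem_ker, hρ] at hx
      have hgK : g ∈ K := (QuotientGroup.eq_one_iff g).mp hx
      rw [Subgroup.range_subtype]
      exact Subgroup.mem_map_of_mem _ hgK
    refine Group.isSolvable_of_ker_le_range H.subtype (QuotientGroup.mk' H) ?_
    intro x hx
    rw [QuotientGroup.ker_mk'] at hx
    exact ⟨⟨x, hx⟩, rfl⟩
  -- prime graph, forward direction
  have dir : ∀ p q : ℕ, p.Prime → q.Prime → p ≠ q → ∀ g : G, orderOf g = p * q →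
      p ∣ Nat.card C₁ → q ∣ Nat.card C₁ := by
    intro p q hp hq hpq g hg hpb
    by_contra hqb
    have hgp : orderOf (g ^ q) = p := by
      have h := orderOf_pow_orderOf_div (x := g) (n := p)
        (by rw [hg]; exact (Nat.mul_pos hp.pos hq.pos).ne') (by rw [hg]; exact dvd_mul_right p q)
      rwa [hg, Nat.mul_div_cancel_left q hp.pos] at h
    have hgq : orderOf (g ^ p) = q := by
      have h := orderOf_pow_orderOf_div (x := g) (n := q)
        (by rw [hg]; exact (Nat.mul_pos hp.pos hq.pos).ne') (by rw [hg]; exact dvd_mul_left q p)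
      rwa [hg, Nat.mul_div_cancel p hq.pos] at h
    have hcomm : g ^ p * g ^ q = g ^ q * g ^ p := by rw [← pow_add, ← pow_add, add_comm]
    have hpnh : ¬ p ∣ Nat.card H := fun h =>
      hp.one_lt.ne' (Nat.eq_one_of_dvd_coprimes hcopHB h hpb)
    have hpnc : Nat.Coprime p (Nat.card C₂) := Nat.Coprime.coprime_dvd_left hpb hcopBC
    have hgpK : g ^ q ∈ K := by
      have h1 : QuotientGroup.mk' K (g ^ q) = 1 := by
        apply tf_map_eq_one' (QuotientGroup.mk' K) (g ^ q)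
        rw [hgp, e6]
        exact hpnc
      exact (QuotientGroup.eq_one_iff _).mp h1
    have hgpH : g ^ q ∉ H := by
      intro h
      apply hpnh
      rw [← hgp, ← Subgroup.orderOf_mk _ h]
      exact orderOf_dvd_natCard _
    by_cases hgqK : g ^ p ∈ K
    · have hgqH : g ^ p ∈ H := by
        have h1 : QuotientGroup.mk' H (g ^ p) = 1 := by
          apply tf_map_eq_one (QuotientGroup.mk' H) (K.map (QuotientGroup.mk' H)) (g ^ p)
            (Subgroup.mem_map_of_mem _ hgqK)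
          rw [hgq, e3]
          exact (Nat.Prime.coprime_iff_not_dvd hq).mpr hqb
        exact (QuotientGroup.eq_one_iff _).mp h1
      have h := nc1 (g ^ q) hgpK hgpH (g ^ p) hgqH hcomm.symm
      rw [← orderOf_eq_one_iff, hgq] at h
      exact hq.one_lt.ne' h
    · exact hgpH (nc2 (g ^ p) hgqK (g ^ q) hgpK hcomm)
  refine ⟨hsolv, ?_, ?_, hcycGK, ?_⟩
  · rw [e7]; exact hodd
  · rw [e7, e6]; exact Nat.Coprime.mul_right hcopHB.symm hcopBC
  · intro p q hp hq hpq hpG hqG
    rw [e7]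
    constructor
    · rintro ⟨g, hg⟩
      exact ⟨fun h => dir p q hp hq hpq g hg h,
        fun h => dir q p hq hp hpq.symm g (by rw [hg, mul_comm]) h⟩
    · intro hiff
      have hcopq : Nat.Coprime p q := (Nat.coprime_primes hp hq).mpr hpq
      by_cases hpb : p ∣ Nat.card C₁
      · have hqb := hiff.mp hpb
        have hpqb : p * q ∣ Nat.card (K.map (QuotientGroup.mk' H)) := by
          rw [e3]; exact Nat.Coprime.mul_dvd_of_dvd_of_dvd hcopq hpb hqb
        obtain ⟨z, hz⟩ := tf_cyclic_dvd (C := K.map (QuotientGroup.mk' H)) (p * q) hpqb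
        obtain ⟨x, hx, -⟩ := tf_exists_orderOf_lift (QuotientGroup.mk' H)
          (QuotientGroup.mk'_surjective H) (z : G ⧸ H)
        exact ⟨x, by rw [hx, Subgroup.orderOf_coe, hz]⟩
      · have hqb : ¬ q ∣ Nat.card C₁ := fun h => hpb (hiff.mpr h)
        have hGcard : Nat.card G = Nat.card C₁ * (Nat.card C₂ * Nat.card H) := by
          rw [e5, e4, e3, mul_assoc]
        have hp' : p ∣ Nat.card C₂ * Nat.card H := by
          rw [hGcard] at hpG; exact (hp.dvd_mul.mp hpG).resolve_left hpb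
        have hq' : q ∣ Nat.card C₂ * Nat.card H := by
          rw [hGcard] at hqG; exact (hq.dvd_mul.mp hqG).resolve_left hqb
        have hnbK : ∀ r : ℕ, r.Prime → ¬ r ∣ Nat.card C₁ → ¬ r ∣ Nat.card H →
            ¬ r ∣ Nat.card K := by
          intro r hr h1 h2 h3
          rw [e2] at h3
          rcases hr.dvd_mul.mp h3 with h | h
          · exact h2 h
          · exact h1 h
        by_cases hpH : p ∣ Nat.card H
        · by_cases hqH : q ∣ Nat.card H
          · obtain ⟨x, hx⟩ := tf_nilpotent_pq (N := H) p q hp hq hpq hpH hqH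
            exact ⟨(x : G), by rw [Subgroup.orderOf_coe, hx]⟩
          · exact tf_cross H K hHle (Nat.card C₁) e2 hcopHB hnb1 nc1 nc2 p q hp hq hpH
              (hnbK q hq hqb hqH) hqG
        · by_cases hqH : q ∣ Nat.card H
          · obtain ⟨x, hx⟩ := tf_cross H K hHle (Nat.card C₁) e2 hcopHB hnb1 nc1 nc2 q p hq hp
              hqH (hnbK p hp hpb hpH) hpG
            exact ⟨x, by rw [hx, mul_comm]⟩
          · have hpc : p ∣ Nat.card C₂ := (hp.dvd_mul.mp hp').resolve_right hpH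
            have hqc : q ∣ Nat.card C₂ := (hq.dvd_mul.mp hq').resolve_right hqH
            have hpqc : p * q ∣ Nat.card (G ⧸ K) := by
              rw [e6]; exact Nat.Coprime.mul_dvd_of_dvd_of_dvd hcopq hpc hqc
            obtain ⟨z, hz⟩ := tf_cyclic_dvd (C := G ⧸ K) (p * q) hpqc
            obtain ⟨x, hx, -⟩ := tf_exists_orderOf_lift (QuotientGroup.mk' K)
              (QuotientGroup.mk'_surjective K) z
            exact ⟨x, by rw [hx, hz]⟩

end Cfsg.Agent.Helper22
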